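import Cfsg.Agent.Lib.AltE.Perm

/-! A numerical obstruction for the alternating group of degree 18. -/

set_option autoImplicit false

namespace Cfsg.Lib.AltE

open Equiv Equiv.Perm Finset Subgroup Cfsg.Lib.E8N Cfsg.Lib.AltSec

/-- Dimensions of the centralizers of an element of order dividing nine and of its cube. -/
def P9 : List (ℕ × ℕ) := [(28, 80), (28, 86), (30, 86), (32, 86), (32, 92), (34, 80), (34, 86),
  (36, 86), (38, 92), (40, 80), (40, 86), (44, 134), (48, 86), (50, 86), (50, 92), (50, 134),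
  (52, 80), (54, 86), (64, 80), (68, 92), (68, 134), (80, 134), (82, 86), (92, 92), (134, 134),
  (80, 248), (86, 248), (92, 248), (134, 248), (248, 248)]

/-- The values on elements of order three. -/
def o3 : List ℤ := [80, 86, 92, 134]

/-- The values on elements of order nine. -/
def o9 : List ℤ := [28, 30, 32, 34, 36, 40, 48, 50, 54, 82]

/-- A non-negative multiple. -/
abbrev K (x m : ℤ) : Prop := 0 ≤ x ∧ x % m = 0

theorem arith1 : ∀ d3 ∈ o3, ∀ d6 ∈ o3, K (-78 * 248 + 48 * d3 + 192 * d6) 162 →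
    d3 = 86 ∧ d6 = 86 := by decide +kernel

theorem arith2 : ∀ d2 ∈ o3, ∀ d5 ∈ o3, ∀ d4 ∈ o3,
    K (-726 * 248 + 36 * d2 + 120 * 86 + 108 * d4 + 720 * d5 + 1200 * 86) 1458 →
    ∀ d1 ∈ o3, ∀ e0 ∈ o9, ∀ e3 ∈ o9, K (-402 * 248 + 18 * d1 + 36 * d2 - 222 * 86 + 108 * e0 +
      144 * d4 + 288 * d5 + 624 * 86 + 864 * e3) 1458 →
    ∀ e2 ∈ o9, K (-1212 * 248 + 18 * d1 + 54 * d2 - 726 * 86 + 108 * e0 + 576 * d4 + 1188 * d5 +
      648 * e2 + 1560 * 86 + 2160 * e3) 4374 →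
    ∀ c ∈ o9, ∀ e1 ∈ o9, K (-132 * 248 + 18 * d1 + 36 * d2 - 294 * 86 + 126 * e0 + 36 * d4 +
      72 * d5 - 60 * 86 + 684 * e3 + 108 * e1 + 216 * e2 + 648 * c) 1458 →
    ¬ K (-2022 * 248 + 36 * d1 + 180 * d2 - 2652 * 86 + 216 * e0 + 1368 * d4 + 1296 * e1 +
      1872 * d5 + 2592 * e2 + 732 * 86 + 5616 * e3 + 3888 * c) 13122 := by decide +kernel

theorem arith {D : ℕ × ℕ → ℕ} (h0 : D (0, 0) = 248)
    (h1 : ∀ s ∈ uB, ∀ t ∈ uB, (D (s.2 + t.2), D ((s.2 + t.2).2, 0)) ∈ P9 ∧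
      (D (s.2 + t.2) = 248 → s.2 + t.2 = 0))
    (h2 : ∀ a ∈ [(2, uR), (2, uC), (3, uS), (4, uB)], ∀ b ∈ [(2, uR), (2, uC), (3, uS), (4, uB)],
      ∃ m : ℕ, W a.2 (fun s => W b.2 fun t => 3 * D (s + t) - D ((s + t).2, 0)) =
        2 * 3 ^ a.1 * 3 ^ b.1 * m) : False := by
  have h3 : ∀ x : ℕ, (x, 248) ∈ P9 → (x = 248 → False) → (x : ℤ) ∈ o3 := fun x hx =>
    (show ∀ t ∈ P9, t.2 = 248 → t.1 ≠ 248 → (t.1 : ℤ) ∈ o3 by decide +kernel) _ hx rfl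
  have h4 : ∀ x : ℕ, (x, 86) ∈ P9 → (x : ℤ) ∈ o9 := fun x hx =>
    (show ∀ t ∈ P9, t.2 = 86 → (t.1 : ℤ) ∈ o9 by decide +kernel) _ hx rfl
  have h5 : ∀ {x m : ℤ} {a : ℕ} (y : ℤ), 0 ≤ m → y = m * a → x = y → K x m :=
    fun y hm e e' => by
      rw [e', e]
      exact ⟨by positivity, Int.mul_emod_right _ _⟩
  simp only [List.forall_mem_cons] at h2
  obtain ⟨⟨⟨m1, c1⟩, -, -, ⟨m2, c2⟩, -⟩, ⟨-, -, -, ⟨m3, c3⟩, -⟩, ⟨-, -, ⟨m4, c4⟩, ⟨m5, c5⟩, -⟩,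
    ⟨-, -, -, ⟨m6, c6⟩, -⟩, -⟩ := h2
  simp only [List.forall_mem_cons, uR, uC, uS, uB, W, List.map_cons, List.map_nil, List.sum_cons,
    List.sum_nil, Prod.mk_add_mk, Nat.reduceAdd, h0, List.not_mem_nil, false_imp_iff, implies_true,
    and_true, Prod.mk_eq_zero, OfNat.ofNat_ne_zero, false_and, Nat.cast_ofNat,
    Nat.cast_one] at h1 c1 c2 c3 c4 c5 c6
  obtain ⟨⟨-, a1, a2, a3, b0⟩, ⟨-, -, -, a4, b1⟩, ⟨-, -, -, a5, b2⟩, ⟨-, -, -, a6, b3⟩, -, -, -, -,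
    c⟩ := h1
  obtain ⟨e1, e2⟩ := arith1 _ (h3 _ a3.1 a3.2) _ (h3 _ a6.1 a6.2) (h5 _ (by decide) c1 (by ring))
  rw [e1, e2] at c2 c3 c4 c5 c6
  rw [show D (9, 0) = 86 by omega] at b0 b1 b2 b3
  rw [show D (18, 0) = 86 by omega] at c
  exact arith2 _ (h3 _ a2.1 a2.2) _ (h3 _ a5.1 a5.2) _ (h3 _ a4.1 a4.2)
    (h5 _ (by decide) c4 (by ring)) _ (h3 _ a1.1 a1.2) _ (h4 _ b0.1) _ (h4 _ b3.1)
    (h5 _ (by decide) c2 (by ring)) _ (h4 _ b2.1) (h5 _ (by decide) c5 (by ring))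
    _ (h4 _ c.1) _ (h4 _ b1.1) (h5 _ (by decide) c3 (by ring)) (h5 _ (by decide) c6 (by ring))

theorem dg_comp {G M F : Type*} [Group G] [Group M] [Field F] {n : Type} [Fintype n]
    [DecidableEq n] (ρ : G →* Matrix n n F) (σ : M →* G) (x : M) : dg (ρ.comp σ) x = dg ρ (σ x) := by
  rw [dg, dg, dS, dS, fx_eq_ker, fx_eq_ker]
  rfl

theorem not_rep {L : Type*} [Group L] [Finite L] {f : L →* alternatingGroup (Fin 18)}
    (hf : Function.Surjective f) (hk : ¬ 3 ∣ Nat.card f.ker) {E : Type} [Field E] [Finite E] (p : ℕ)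
    [Fact p.Prime] [CharP E p] (hp : p ≠ 3) {n : Type} [Fintype n] [DecidableEq n]
    (ρ : L →* Matrix n n E) (hn : Fintype.card n = 248)
    (hρ : ∀ y, y ^ 9 = 1 → (dg ρ y, dg ρ (y ^ 3)) ∈ P9 ∧ (dg ρ y = 248 → y = 1)) : False := by
  classical
  have := Fact.mk Nat.prime_three
  obtain ⟨D, hD⟩ : ∃ D : ℕ × ℕ → ℕ, ∀ y, y ^ 9 = 1 → dg ρ y = D (key (f y).1) := by
    refine ⟨fun k => if h : ∃ y, y ^ 9 = 1 ∧ key (f y).1 = k then dg ρ h.choose else 0,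
      fun y hy => ?_⟩
    have h3 : ∃ x, x ^ 9 = 1 ∧ key (f x).1 = key (f y).1 := ⟨y, hy, rfl⟩
    simp only [dif_pos h3]
    exact dg_isConj (isConj_lift (e := 2) hf hk hy h3.choose_spec.1 (isConj_alt
      (by rw [← map_pow, hy, map_one]) (by rw [← map_pow, h3.choose_spec.1, map_one])
      h3.choose_spec.2.symm))
  have hD' : ∀ y, y ^ 9 = 1 → dg ρ (y ^ 3) = D ((key (f y).1).2, 0) := fun y hy => by
    rw [hD _ (by rw [pow_right_comm, hy, one_pow]), key, ← Subgroup.coe_pow, ← map_pow, ← pow_mul,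
      hy, map_pow]
    simp [key]
  have H : ∀ {A₁ A₂ k₁ k₂ u₁ u₂}, Dist A₁ k₁ u₁ → Dist A₂ k₂ u₂ →
      (∃ m : ℕ, W u₁ (fun s => W u₂ fun t => 3 * D (s + t) - D ((s + t).2, 0)) =
        2 * 3 ^ k₁ * 3 ^ k₂ * m) ∧ ∀ s ∈ u₁, ∀ t ∈ u₂, (D (s.2 + t.2), D ((s.2 + t.2).2, 0)) ∈ P9 ∧
          (D (s.2 + t.2) = 248 → s.2 + t.2 = 0) := fun {A₁ A₂ k₁ k₂ u₁ u₂} h₁ h₂ => by
    have h9 : ∀ x : A₁ × A₂, x ^ 9 = 1 := fun x =>
      Prod.ext (Subtype.ext (h₁.nine _ x.1.2)) (Subtype.ext (h₂.nine _ x.2.2))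
    let τ : A₁ × A₂ →* alternatingGroup (Fin 18) :=
      (θ.comp (A₁.subtype.prodMap A₂.subtype)).codRestrict _ fun x => mem_alternatingGroup.2 (by
        have := congrArg (sign.comp (θ.comp (A₁.subtype.prodMap A₂.subtype))) (h9 x)
        rw [map_pow, map_one, pow_succ, show 8 = 2 * 4 from rfl, pow_mul, Int.units_sq, one_pow,
          one_mul] at this
        exact this)
    obtain ⟨g, hg, -⟩ := Alt78.exists_lift (s := 3) hf hk (A := τ.range) (by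
      rintro ⟨_, x, rfl⟩
      exact ⟨2, Subtype.ext ((map_pow τ x 9).symm.trans (by rw [h9, map_one]; rfl))⟩)
    let σ := g.comp τ.rangeRestrict
    have h3 : ∀ x, key (f (σ x)).1 = key x.1.1 + key x.2.1 := fun x =>
      (congrArg (fun a => key a.1) (hg _)).trans (key_θ _)
    have h4 : ∀ x, σ x ^ 9 = 1 := fun x => by rw [← map_pow, h9, map_one]
    refine ⟨?_, fun s hs t ht => ?_⟩
    · obtain ⟨j₁, e₁⟩ := h₁.card
      obtain ⟨j₂, e₂⟩ := h₂.card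
      rw [Nat.card_eq_fintype_card] at e₁ e₂
      have h5 := avg p hp (ρ.comp σ) (k := j₁ + j₂) (by rw [Fintype.card_prod, e₁, e₂, pow_add]) h9
      simp only [dg_comp, map_pow, hD _ (h4 _), hD' _ (h4 _), h3, Fintype.sum_prod_type] at h5
      refine ⟨dS (ρ.comp σ) (⊤ : Subgroup (A₁ × A₂)), mul_left_cancel₀ (a := (Fintype.card A₂ : ℤ) * Fintype.card A₁) (by simp) ?_⟩
      rw [mul_assoc, h₁.sum, mul_left_comm, mul_sum]
      simp only [h₂.sum]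
      rw [← mul_sum, h5, e₁, e₂]
      push_cast
      ring
    · obtain ⟨a, ha, e₁⟩ := h₁.mem s hs
      obtain ⟨b, hb, e₂⟩ := h₂.mem t ht
      have h5 := hρ _ (h4 (⟨a, ha⟩, ⟨b, hb⟩))
      rw [hD _ (h4 _), hD' _ (h4 _), h3, e₁, e₂] at h5
      refine ⟨h5.1, fun e => ?_⟩
      rw [← e₁, ← e₂, ← h3 (⟨a, ha⟩, ⟨b, hb⟩), h5.2 e]
      simp [key]
  obtain ⟨⟨_, h1⟩, ⟨_, h2⟩, ⟨_, h3⟩, _, h4⟩ := exists_dist
  have h5 : ∀ a ∈ [(2, uR), (2, uC), (3, uS), (4, uB)], ∃ A, Dist A a.1 a.2 := by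
    simp only [List.forall_mem_cons]
    exact ⟨⟨_, h1⟩, ⟨_, h2⟩, ⟨_, h3⟩, ⟨_, h4⟩, by simp⟩
  refine arith (D := D) ?_ (H h4 h4).2 fun a ha b hb => ?_
  · simpa [key, dg_one, hn] using (hD 1 (one_pow 9)).symm
  · obtain ⟨_, h6⟩ := h5 a ha
    obtain ⟨_, h7⟩ := h5 b hb
    exact (H h6 h7).1

end Cfsg.Lib.AltE
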