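import Cfsg.Agent.Lib.AltE.Abs
import Cfsg.Agent.Lib.E8N.E8

/-! Alternating sections of the groups of type `E₈`. -/

set_option autoImplicit false

namespace Cfsg.Lib.AltE

open Finset Matrix Cfsg.Lie Cfsg.Lib.Chev Cfsg.Lib.Chev.RootSys Cfsg.Lib.Alg Cfsg.Lib.E8N
  Cfsg.Lib.AltSec

theorem exists_tor_aux {D : ChevalleyDatum} {c : Cert} (h : Checked D c) (hD : D ∈ types)
    {E : Type} [Field E] [Finite E] (p : ℕ) [Fact p.Prime] [CharP E p]
    (h0 : h.R.kerChr (AlgebraicClosure E) = ⊥) {N : ℕ} (hN : N.Coprime p) {x : D.group E}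
    (hx : x ^ N = 1) {P : (Fin D.rank → ℤ) → Prop} (hP : ∀ (ζ : (AlgebraicClosure E)ˣ), ζ ^ N = 1 →
      ∀ y : Fin D.rank → ℤ, ∃ z,
      ∃ w ∈ h.R.W, mAct (h.R.wM w) (fun i => ζ ^ y i) = (fun i => ζ ^ z i) ∧ P z) :
    ∃ z, P z ∧ ∀ j : ℕ, dg (rep D _) (x ^ j) = D.rank + #{r | (N : ℤ) ∣ j * h.R.ev r z} := by
  classical
  obtain ⟨φ, ha⟩ := (h.gsys_faithful (AlgebraicClosure E)).exists_alg p
    (exists_pow_pow_eq E p) (h.gsys_adjoint _).hMul (h.gsys_strongComm _) (h.noA1 hD)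
    (h.gsys_grp _) (by
      rw [← MonoidHom.ker_eq_bot_iff, (h.gsys_adjoint _).ker_torus (h.gsys_faithful _), h0])
    (rep D _) (rep_injective D _) (fun r i j => by
      simpa only [rep_x, one_mul] using h.T.xA_poly r (1 : AlgebraicClosure E) i j)
    fun r t => by
      rw [rep_x, rep_x]
      exact (h.T.xA_map (frobenius _ p) _ _).symm
  let j := algebraMap E (AlgebraicClosure E)
  have hle : D.group E ≤ (D.group (AlgebraicClosure E)).comap (GeneralLinearGroup.map j) :=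
    (Subgroup.closure_le _).2 (by
      rintro g ⟨r, t, e⟩
      exact Subgroup.subset_closure ⟨r, j t, (congrArg (Matrix.map · j) e).trans (xMat_map j r t)⟩)
  let ι : D.group E →* D.group (AlgebraicClosure E) :=
    ((GeneralLinearGroup.map j).comp (Subgroup.subtype _)).codRestrict _ fun x => hle x.2
  have hc : (N : AlgebraicClosure E) ≠ 0 := fun e => (Fact.out : p.Prime).one_lt.ne'
    (hN.symm.eq_one_of_dvd ((CharP.cast_eq_zero_iff _ p N).1 e))
  have hr : ∀ g, (rep D _ (ι g) - 1).rank = (rep D _ g - 1).rank := fun g => by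
    rw [show rep D _ (ι g) = (rep D _ g).map j from rfl, ← Modular.rank_map_ringHom j,
      Matrix.map_sub _ (map_sub _), Matrix.map_one _ (map_zero _) (map_one _)]
  obtain ⟨ζ, hζ, hζ'⟩ := exists_primitive hc
  have hd : ∀ a : ℤ, ζ ^ a = 1 ↔ (N : ℤ) ∣ a := fun a => by rw [← orderOf_dvd_iff_zpow_eq_one, hζ]
  have h1 : ι x ^ N = 1 := by rw [← map_pow, hx, map_one]
  obtain ⟨a, b, e1⟩ := ha.cj_of_coprime (Nat.Coprime.of_dvd_left (orderOf_dvd_of_pow_eq_one h1) hN)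
  have hb : b ^ N = 1 := ha.inj (by
    rw [e1, conj_pow, conj_eq_one_iff] at h1
    rw [map_pow, map_one]
    exact h1)
  choose y hy using fun i => Subgroup.mem_zpowers_iff.1 (hζ' (b i) (congrFun hb i))
  obtain rfl := funext hy
  obtain ⟨z, w, hw, e4, hz⟩ := hP ζ (hζ ▸ pow_orderOf_eq_one ζ) y
  obtain ⟨n, hn⟩ := (h.gsys (AlgebraicClosure E)).exists_nw_of_mem_W hw
  have e5 : ι x = a * n⁻¹ * ha.tor (fun i => ζ ^ z i) * (a * n⁻¹)⁻¹ := by
    rw [← e4, ← ha.hMul.nw_conj_torus hn, e1]; group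
  have e6 : ∀ j : ℕ, (fun i => ζ ^ z i) ^ j = fun i => ζ ^ ((j : ℤ) • z) i := fun j => funext fun i => by
    rw [Pi.pow_apply, ← zpow_natCast, ← _root_.zpow_mul, mul_comm]; rfl
  refine ⟨z, hz, fun j => ?_⟩
  have e7 := dg_add_rank (ρ := rep D _) (ι (x ^ j))
  rw [hr, ← dg_add_rank (ρ := rep D _) (x ^ j), add_left_inj] at e7
  rw [← e7, map_pow, e5, conj_pow, dg_conj, ← map_pow, e6, dg_diagonal (rep_torus h _ _),
    card_filter, Fintype.sum_sum_type, card_filter]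
  simp only [Sum.elim_inl, Sum.elim_inr, chr_zpow, ← hd, map_smul, smul_eq_mul, Units.val_eq_one]
  simp

theorem alc9 : alc (fun s => decide ((dz 9 s 1, dz 9 s 3) ∈ P9)) [2, 3, 4, 5, 6, 4, 3, 2] 9 [] =
    true := by decide +kernel

theorem dg_nine {E : Type} [Field E] [Finite E] (p : ℕ) [Fact p.Prime] [CharP E p] (hp : p ≠ 3)
    {x : chevE8.group E} (hx : x ^ 9 = 1) :
    (dg (rep chevE8 E) x, dg (rep chevE8 E) (x ^ 3)) ∈ P9 ∧ (dg (rep chevE8 E) x = 248 → x = 1) := by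
  obtain ⟨z, ⟨s, hs⟩, h1⟩ := exists_tor_aux checkedE8 (by simp) p (kerDataE8 _).kerChr_eq_bot
    ((coprime_of_ne Nat.prime_three hp).symm.pow_left 2) hx (P := fun z => ∃ s, Pt 9 z s)
    fun ζ hζ y => by
      obtain ⟨z, s, w, hw, e, h⟩ := exists_pt (by norm_num) hζ y
      exact ⟨z, w, hw, e, s, h⟩
  have h2 : ∀ j : ℕ, dg (rep chevE8 E) (x ^ j) = dz 9 s j := fun j =>
    (h1 j).trans (congrArg (8 + ·) (hs.card (fun a => ((9 : ℕ) : ℤ) ∣ j * a) (by simp) fun v => by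
      rw [Calc.beq_iff, ← Nat.cast_mul, Int.natCast_dvd_natCast, Nat.dvd_iff_mod_eq_zero]
      rfl))
  refine ⟨?_, fun h => ?_⟩
  · have h3 := of_decide_eq_true (hs.of_alc alc9)
    rwa [← h2, ← h2, pow_one] at h3
  · have := dg_add_rank (ρ := rep chevE8 E) x
    rw [card_idx, h, Nat.add_eq_left, Matrix.rank, Submodule.finrank_eq_zero,
      LinearMap.range_eq_bot, ← Matrix.mulVecLin_zero] at this
    exact rep_injective _ _ ((sub_eq_zero.1 (Matrix.toLin'.injective this)).trans (map_one _).symm)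

theorem E8_eighteen {F : Type*} [Field F] [Finite F] (p : ℕ) [Fact p.Prime] [CharP F p]
    (hp : p ≠ 3) : ¬ Sec (chevE8.group F) 18 := fun h => by
  have := Fact.mk Nat.prime_three
  obtain ⟨E, _, _, i, hE⟩ := exists_ext F p ((coprime_of_ne Nat.prime_three hp).pow_right (5 + 1))
    (by norm_num)
  have := charP_of_injective_ringHom i.injective p
  obtain ⟨L, f, hf, hk⟩ := Alt78.exists_coprime_sys (s := 3) (by norm_num) (by norm_num)
    (checkedE8.gsys_faithful E) (checkedE8.gsys_adjoint E).hMul (by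
      rw [← MonoidHom.ker_eq_bot_iff, (checkedE8.gsys_adjoint _).ker_torus
        (checkedE8.gsys_faithful _), (kerDataE8 _).kerChr_eq_bot]) (checkedE8.gsys_grp E) hE
    (by rw [cardWE8]; decide) (by rw [Fintype.card_fin]; decide) (h.group i)
  refine not_rep hf hk p hp ((rep chevE8 E).comp L.subtype) card_idx fun y hy => ?_
  have h1 := dg_nine p hp (x := y.1) (congrArg Subtype.val hy)
  rw [dg_comp, dg_comp]
  exact ⟨h1.1, fun e => Subtype.ext (h1.2 e)⟩

theorem not_dvd_det_E8 {w : Equiv.Perm (Fin chevE8.nroots)} (hw : w ∈ checkedE8.R.W) :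
    ¬ 17 ∣ (checkedE8.R.wM w * ((3 ^ 1 : ℕ) : ℤ) • 1 - 1).det.natAbs := fun hd => by
  have := Fact.mk Nat.prime_three
  obtain ⟨φ, h⟩ := algE8 (AlgebraicClosure (ZMod 3)) 3 (exists_pow_pow_eq (ZMod 3) 3)
  obtain ⟨g, hg⟩ := h.exists_nw_lang (isSt_pow φ one_pos) hw
  have h1 := Subgroup.card_dvd_of_injective _ (h.twTor_injective (h.pow_tor' 1) hg)
  have h2 : ∀ q, 0 < q → q ^ (Fintype.card (Fin chevE8.nroots) / 2) *
      ((q - 1) ^ Fintype.card (Fin chevE8.rank) * checkedE8.R.poin Set.univ q) = q ^ 120 *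
      ((q ^ 2 - 1) * (q ^ 8 - 1) * (q ^ 12 - 1) * (q ^ 14 - 1) * (q ^ 18 - 1) * (q ^ 20 - 1) *
        (q ^ 24 - 1) * (q ^ 30 - 1)) :=
    fun q hq => by
      rw [show Fintype.card (Fin chevE8.rank) = 8 from Fintype.card_fin _,
        show Fintype.card (Fin chevE8.nroots) / 2 = 120 by rw [Fintype.card_fin]; decide,
        poinE8 checkedE8 hq]
  rw [card_ker_mAct (det_smul_sub_one (p := 3) one_pos), h.card_fix one_pos] at h1
  exact absurd (hd.trans (h1.trans (h2 _ (by decide)).dvd)) (by decide +kernel)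

theorem ab19 : ∃ a b : alternatingGroup (Fin 19), orderOf a = 17 ∧ b * a * b⁻¹ = a ^ (6 : ℤ) :=
  haveI : Fact (Nat.Prime 17) := ⟨by norm_num⟩
  exists_ab 6 (pm 19 [1, 2, 3, 4, 5, 6, 7, 8, 9, 10, 11, 12, 13, 14, 15, 16, 0, 17, 18]
      [16, 0, 1, 2, 3, 4, 5, 6, 7, 8, 9, 10, 11, 12, 13, 14, 15, 17, 18])
    (pm 19 [0, 6, 12, 1, 7, 13, 2, 8, 14, 3, 9, 15, 4, 10, 16, 5, 11, 18, 17]
      [0, 3, 6, 9, 12, 15, 1, 4, 7, 10, 13, 16, 2, 5, 8, 11, 14, 18, 17]) (by decide +kernel)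

theorem E8_nineteen {F : Type*} [Field F] [Finite F] (p : ℕ) [Fact p.Prime] [CharP F p]
    (hp : p ≠ 17) : ¬ Sec (chevE8.group F) 19 := fun h => by
  have h17 : Nat.Prime 17 := by norm_num
  obtain ⟨E, _, A, h1, h2⟩ := h.exists_amb checkedE8 p (coprime_of_ne h17 hp) (by decide)
  rw [cardWE8] at h2
  obtain ⟨w, hw, h3⟩ := A.sec_one h1 h17 (mt (h2.dvd_iff dvd_rfl).1 (by decide)) ab19
  have h4 := h3 _ (Matrix.aeval_self_charpoly _)
  refine not_dvd_det_E8 hw (Int.natCast_dvd.1 ?_)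
  generalize checkedE8.R.wM w = M at h4
  rw [Matrix.eval_charpoly] at h4
  rw [← ZMod.intCast_zmod_eq_zero_iff_dvd, ← eq_intCast (Int.castRingHom _), RingHom.map_det] at h4 ⊢
  rw [show (Int.castRingHom (ZMod 17)).mapMatrix (M * ((3 ^ 1 : ℕ) : ℤ) • 1 - 1) =
    (-3 : ZMod 17) • (Int.castRingHom (ZMod 17)).mapMatrix (Matrix.scalar _ 6 - M) from ?_,
    det_smul, h4, mul_zero]
  rw [Matrix.mul_smul, mul_one, scalar_apply]
  ext i j
  simp only [RingHom.mapMatrix_apply, map_apply, Matrix.sub_apply, Matrix.smul_apply, smul_eq_mul,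
    eq_intCast, one_apply, diagonal_apply]
  have h : (17 : ZMod 17) = 0 := rfl
  split_ifs
  · push_cast
    linear_combination h
  · push_cast
    ring

theorem E8_le {F : Type*} [Field F] [Finite F] (p : ℕ) [Fact p.Prime] [CharP F p] :
    ¬ Sec (chevE8.group F) (17 + (if p = 3 then 1 else 0) + 1) := by
  split_ifs with hp
  · exact E8_nineteen p (by omega)
  · exact E8_eighteen p hp

end Cfsg.Lib.AltE
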