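import Cfsg.Agent.Lib.E8N.Lin

/-! Averages of dimensions of fixed spaces over groups of exponent nine. -/

set_option autoImplicit false

namespace Cfsg.Lib.AltE

open Matrix Module Finset Cfsg.Lib.E8N

variable {M : Type*} [Group M] [Fintype M] {n : Type} [Fintype n] [DecidableEq n]

theorem unif_univ : Unif (univ : Finset M).toList ⊤ :=
  ⟨by simp, fun _ _ => trivial, fun a _ => by
    rw [← Multiset.coe_eq_coe, ← Multiset.map_coe, Finset.coe_toList]
    exact Multiset.map_univ_val_equiv (Equiv.mulLeft a)⟩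

theorem avg_zmod {ℓ : ℕ} [Fact ℓ.Prime] (hℓ : ℓ ≠ 3) (ρ : M →* Matrix n n (ZMod ℓ)) {k : ℕ}
    (hM : Fintype.card M = 3 ^ k) (h9 : ∀ x : M, x ^ 9 = 1) :
    ∑ x, (3 * (dg ρ x : ℤ) - dg ρ (x ^ 3)) = 2 * 3 ^ k * dS ρ (⊤ : Subgroup M) := by
  have hL : (univ : Finset M).toList.length = 3 ^ k := by rw [length_toList, card_univ, hM]
  have hc : ∀ j : ℕ, j.Coprime 3 → j.Coprime (univ : Finset M).toList.length := fun j hj =>
    hL ▸ hj.pow_right k
  obtain ⟨χ, h1, h2⟩ := unif_univ.exists_lift ρ fun e => hℓ ((Nat.prime_dvd_prime_iff_eq Fact.out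
    Nat.prime_three).1 ((Fact.out : ℓ.Prime).dvd_of_dvd_pow (hL ▸ e)))
  have h3 : ∀ x : M, 3 * ((3 * (dg ρ x : ℤ) - dg ρ (x ^ 3) : ℤ) : ℂ) =
      χ (x ^ 1) + χ (x ^ 2) + χ (x ^ 4) + χ (x ^ 5) + χ (x ^ 7) + χ (x ^ 8) := fun x => by
    have e1 := h2 x (by simp) 9 (h9 x)
    have e2 := h2 (x ^ 3) (by simp) 3 (by rw [← pow_mul, h9 x])
    simp only [sum_range_succ, sum_range_zero, ← pow_mul] at e1 e2
    push_cast at e1 e2 ⊢
    linear_combination e2 - e1
  have h4 := sum_congr (s₁ := (univ : Finset M)) rfl fun x _ => h3 x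
  simp only [sum_add_distrib, ← mul_sum] at h4
  simp only [sum_map_toList] at h1
  rw [h1 1 (hc _ (by decide)), h1 2 (hc _ (by decide)), h1 4 (hc _ (by decide)),
    h1 5 (hc _ (by decide)), h1 7 (hc _ (by decide)), h1 8 (hc _ (by decide)), hL] at h4
  apply Int.cast_injective (α := ℂ)
  rw [Int.cast_sum]
  push_cast at h4 ⊢
  linear_combination (exp := 1) h4 / 3

theorem avg {E : Type} [Field E] [Finite E] (p : ℕ) [Fact p.Prime] [CharP E p] (hp : p ≠ 3)
    (ρ : M →* Matrix n n E) {k : ℕ} (hM : Fintype.card M = 3 ^ k) (h9 : ∀ x : M, x ^ 9 = 1) :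
    ∑ x, (3 * (dg ρ x : ℤ) - dg ρ (x ^ 3)) = 2 * 3 ^ k * dS ρ (⊤ : Subgroup M) := by
  letI := ZMod.algebra E p
  let b := Module.finBasis (ZMod p) (n → E)
  let τ : Matrix n n E →* End (ZMod p) (n → E) :=
    ⟨⟨fun A => A.mulVecLin.restrictScalars (ZMod p), LinearMap.ext one_mulVec⟩, fun A B =>
      LinearMap.ext fun v => (mulVec_mulVec v A B).symm⟩
  let ρ' := ((LinearMap.toMatrixAlgEquiv b).toMulEquiv.toMonoidHom.comp τ).comp ρ
  have h1 : ∀ S, dS ρ' S = finrank (ZMod p) E * dS ρ S := fun S => by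
    have h2 : Nat.card (fx ρ S) = Nat.card (fx ρ' S) := Nat.card_congr
      (b.equivFun.toEquiv.subtypeEquiv fun v => forall₂_congr fun g _ => by
        change _ ↔ LinearMap.toMatrixAlgEquiv b (τ (ρ g)) *ᵥ b.repr v = b.repr v
        rw [show LinearMap.toMatrixAlgEquiv b (τ (ρ g)) = LinearMap.toMatrix b b (τ (ρ g)) from rfl,
          LinearMap.toMatrix_mulVec_repr]
        exact ⟨fun h => congrArg (fun w => ⇑(b.repr w)) h,
          fun h => b.repr.injective (DFunLike.coe_injective h)⟩)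
    rw [Module.natCard_eq_pow_finrank (K := E), Module.natCard_eq_pow_finrank (K := ZMod p) (V := E),
      Module.natCard_eq_pow_finrank (K := ZMod p) (V := fx ρ' S), Nat.card_zmod, ← pow_mul] at h2
    exact (Nat.pow_right_injective (Fact.out : p.Prime).two_le h2).symm
  have h2 := avg_zmod hp ρ' hM h9
  simp only [dg, h1, Nat.cast_mul] at h2
  refine mul_left_cancel₀ (Nat.cast_ne_zero.2 (finrank_pos (R := ZMod p) (M := E)).ne') ?_
  rw [mul_sum, mul_left_comm, ← h2]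
  exact sum_congr rfl fun x _ => by simp only [dg]; ring

end Cfsg.Lib.AltE
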