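import Cfsg.Agent.Lib.AltE.Lin
import Cfsg.Agent.Lib.Alt78.Cop

/-! Elements of order dividing nine in alternating groups. -/

set_option autoImplicit false

namespace Cfsg.Lib.AltE

open Equiv Equiv.Perm Finset Subgroup Cfsg.Lib.E8N Cfsg.Lib.AltSec

/-- The numbers of points moved by a permutation and by its cube. -/
def key {α : Type*} [Fintype α] [DecidableEq α] (x : Perm α) : ℕ × ℕ :=
  (x.support.card, (x ^ 3).support.card)

theorem cycleType_nine {α : Type*} [Fintype α] [DecidableEq α] (x : Perm α) : x ^ 9 = 1 →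
    ∃ a b, x.cycleType = Multiset.replicate a 3 + Multiset.replicate b 9 ∧
      key x = (3 * a + 9 * b, 9 * b) := by
  induction x using cycle_induction_on with
  | base_one => exact fun _ => ⟨0, 0, by simp, by simp [key]⟩
  | base_cycles σ hσ =>
    intro h
    have h1 := orderOf_dvd_of_pow_eq_one h
    have h2 := hσ.two_le_card_support
    have h3 := Nat.le_of_dvd (by norm_num) h1
    have h4 := hσ.support_pow_eq_iff (n := 3)
    have h5 := orderOf_dvd_iff_pow_eq_one (x := σ) (n := 3)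
    rw [hσ.orderOf] at h1 h3 h4 h5
    rw [hσ.cycleType, key]
    obtain e | e : σ.support.card = 3 ∨ σ.support.card = 9 := by
      generalize σ.support.card = m at h1 h2 h3
      interval_cases m <;> simp_all
    · exact ⟨1, 0, by simp [e], by simp [e, h5.1 (by rw [e])]⟩
    · exact ⟨0, 1, by simp [e], by simp [e, h4.2 (by rw [e]; decide)]⟩
  | induction_disjoint σ τ hd _ h1 h2 =>
    intro h
    rw [hd.commute.mul_pow, (hd.pow_disjoint_pow 9 9).mul_eq_one_iff] at h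
    obtain ⟨a, b, e1, e2⟩ := h1 h.1
    obtain ⟨c, d, e3, e4⟩ := h2 h.2
    simp only [key, Prod.mk.injEq] at e2 e4 ⊢
    refine ⟨a + c, b + d, ?_, ?_, ?_⟩
    · rw [hd.cycleType_mul, e1, e3, Multiset.replicate_add, Multiset.replicate_add]
      abel
    · rw [hd.card_support_mul, e2.1, e4.1]; ring
    · rw [hd.commute.mul_pow, (hd.pow_disjoint_pow 3 3).card_support_mul, e2.2, e4.2]; ring

theorem isConj_alt {x y : alternatingGroup (Fin 18)} (hx : x ^ 9 = 1) (hy : y ^ 9 = 1)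
    (h : key x.1 = key y.1) : IsConj x y := by
  obtain ⟨a, b, e1, e2⟩ := cycleType_nine x.1 (congrArg Subtype.val hx)
  obtain ⟨c, d, e3, e4⟩ := cycleType_nine y.1 (congrArg Subtype.val hy)
  rw [e2, e4, Prod.mk.injEq] at h
  obtain rfl : b = d := by omega
  obtain rfl : a = c := by omega
  obtain ⟨g, hg⟩ := isConj_iff.1 (isConj_iff_cycleType_eq.2 (e1.trans e3.symm))
  rcases Int.units_eq_one_or (sign g) with h1 | h1
  · exact isConj_iff.2 ⟨⟨g, h1⟩, Subtype.ext hg⟩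
  obtain ⟨z, h2, h3⟩ := SetLike.not_le_iff_exists.1
    (mt (centralizer_le_alternating_iff (g := x.1)).1 fun ⟨_, h2, h3⟩ => by
      have h4 := h3 3
      have h5 := h3 9
      rw [e1] at h2 h4 h5
      simp [Multiset.count_replicate] at h2 h4 h5
      omega)
  refine isConj_iff.2 ⟨⟨g * z, mem_alternatingGroup.2 ?_⟩, Subtype.ext ?_⟩
  · rw [map_mul, h1, (Int.units_eq_one_or (sign z)).resolve_left h3]
    simp
  · change g * z * x * (g * z)⁻¹ = y
    rw [← hg, mul_assoc g, mem_centralizer_singleton_iff.1 h2]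
    group

theorem isConj_lift {L B : Type*} [Group L] [Finite L] [Group B] {s : ℕ} [Fact s.Prime]
    {f : L →* B} (hf : Function.Surjective f) (hk : ¬ s ∣ Nat.card f.ker) {x y : L} {e : ℕ}
    (hx : x ^ s ^ e = 1) (hy : y ^ s ^ e = 1) (h : IsConj (f x) (f y)) : IsConj x y := by
  obtain ⟨g, hg⟩ := isConj_iff.1 h
  obtain ⟨g, rfl⟩ := hf g
  refine (isConj_iff.2 ⟨g, rfl⟩).trans ?_
  have hx' : (g * x * g⁻¹) ^ s ^ e = 1 := by rw [conj_pow, hx, mul_one, mul_inv_cancel]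
  rw [← map_inv, ← map_mul, ← map_mul] at hg
  generalize g * x * g⁻¹ = x at hx' hg
  let M := (zpowers (f y)).comap f
  have key : ∀ x : M, x.1 ^ s ^ e = 1 → ∃ Q : Sylow s M, x ∈ Q := fun x hx => by
    obtain ⟨Q, hQ⟩ := (show IsPGroup s (zpowers x) from fun ⟨_, i, rfl⟩ => ⟨e, Subtype.ext (by
      change (x ^ i) ^ s ^ e = 1
      rw [← zpow_natCast, ← zpow_mul, mul_comm, zpow_mul, zpow_natCast,
        show x ^ s ^ e = 1 from Subtype.ext hx, one_zpow])⟩).exists_le_sylow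
    exact ⟨Q, hQ (mem_zpowers x)⟩
  obtain ⟨Q, hQ⟩ := key ⟨x, mem_comap.2 (hg.symm ▸ mem_zpowers (f y))⟩ hx'
  obtain ⟨Q', hQ'⟩ := key ⟨y, mem_zpowers _⟩ hy
  obtain ⟨m, rfl⟩ := MulAction.exists_smul_eq M Q Q'
  obtain ⟨j, hj⟩ := (m • Q).isPGroup' ⟨_, mul_mem (smul_mem_pointwise_smul _ (MulAut.conj m) _ hQ)
    (inv_mem hQ')⟩
  refine isConj_iff.2 ⟨m, mul_inv_eq_one.1 (orderOf_eq_one_iff.1 (Nat.eq_one_of_dvd_coprimes
    (((Fact.out : s.Prime).coprime_iff_not_dvd.2 hk).pow_left j)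
    (orderOf_dvd_of_pow_eq_one (congrArg (·.1.1) hj)) (f.ker.orderOf_dvd_natCard ?_)))⟩
  obtain ⟨i, hi⟩ := m.2
  simp only [MonoidHom.mem_ker, map_mul, map_inv, hg, ← hi]
  group

/-- The product of two symmetric groups of degree nine. -/
def θ : Perm (Fin 9) × Perm (Fin 9) →* Perm (Fin 18) :=
  (finSumFinEquiv (m := 9) (n := 9)).permCongrHom.toMonoidHom.comp (sumCongrHom _ _)

theorem card_θ (a : Perm (Fin 9) × Perm (Fin 9)) :
    (θ a).support.card = a.1.support.card + a.2.support.card := by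
  rw [← card_equiv (s := (sumCongrHom _ _ a).support) (finSumFinEquiv (m := 9) (n := 9))
    fun i => by simp [θ]]
  simp only [support, card_filter, Fintype.sum_sum_type]
  simp [sumCongrHom]

theorem key_θ (a : Perm (Fin 9) × Perm (Fin 9)) : key (θ a) = key a.1 + key a.2 := by
  rw [key, ← map_pow, card_θ, card_θ]
  rfl

/-- A weighted sum. -/
def W (u : List (ℕ × ℕ × ℕ)) (F : ℕ × ℕ → ℤ) : ℤ := (u.map fun a => a.1 * F a.2).sum

/-- The distribution of the cycle types in a subgroup. -/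
structure Dist (A : Subgroup (Perm (Fin 9))) (k : ℕ) (u : List (ℕ × ℕ × ℕ)) : Prop where
  card : ∃ j, Nat.card A = 3 ^ j
  nine : ∀ a ∈ A, a ^ 9 = 1
  sum : ∀ [Fintype A] (F : ℕ × ℕ → ℤ), Fintype.card A * W u F = 3 ^ k * ∑ a : A, F (key a.1)
  mem : ∀ t ∈ u, ∃ a ∈ A, key a = t.2

theorem dist_of_unif {L : List (Perm (Fin 9))} {A : Subgroup (Perm (Fin 9))} (h : Unif L A) {k : ℕ}
    {u : List (ℕ × ℕ × ℕ)} (h1 : L.length = 3 ^ k ∧ (L.all fun a => decide (a ^ 9 = 1)) = true ∧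
      (∀ t ∈ u, 0 < t.1) ∧ (L.map key).Perm (u.flatMap fun t => List.replicate t.1 t.2)) : Dist A k u := by
  obtain ⟨h1, h2, h3, h4⟩ := h1
  refine ⟨((Nat.dvd_prime_pow Nat.prime_three).1 (h1 ▸ h.card_dvd)).imp fun _ h => h.2,
    fun a ha => of_decide_eq_true (List.all_eq_true.1 h2 a (h.mem_list ha)), fun F => ?_,
    fun t ht => ?_⟩
  · have h5 := h.sum_eq fun x => F (key x)
    have h6 := (h4.map F).sum_eq
    rw [List.map_map, List.map_flatMap] at h6
    rw [show (L.map fun x => F (key x)).sum = _ from h6, h1, nsmul_eq_mul, nsmul_eq_mul] at h5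
    rw [Nat.cast_pow, Nat.cast_ofNat] at h5
    rw [← h5, W]
    congr 1
    clear h3 h4 h5 h6
    induction u with
    | nil => rfl
    | cons t u ih => simp [ih]
  · obtain ⟨a, ha, e⟩ := List.mem_map.1 (h4.symm.subset (List.mem_flatMap.2
      ⟨t, ht, List.mem_replicate.2 ⟨(h3 t ht).ne', rfl⟩⟩))
    exact ⟨a, h.mem a ha, e⟩

/-- One more generator. -/
def st (g : Perm (Fin 9)) (L : List (Perm (Fin 9))) : List (Perm (Fin 9)) :=
  (List.range (2 + 1)).flatMap fun i => L.map (g ^ i * ·)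

theorem unif_st {L : List (Perm (Fin 9))} {A : Subgroup (Perm (Fin 9))} (h : Unif L A)
    {g : Perm (Fin 9)} (hg : (L.all fun a => decide (g⁻¹ * a * g ∈ L)) = true ∧ g ^ 3 ∈ L) :
    Unif (st g L) (A ⊔ zpowers g) :=
  h.step (fun a ha => h.mem _ (of_decide_eq_true (List.all_eq_true.1 hg.1 a (h.mem_list ha))))
    (h.mem _ hg.2)

def gz : Perm (Fin 9) := pm 9 [1, 2, 0, 4, 5, 3, 7, 8, 6] [2, 0, 1, 5, 3, 4, 8, 6, 7]
def gc : Perm (Fin 9) := pm 9 [3, 4, 5, 6, 7, 8, 0, 1, 2] [6, 7, 8, 0, 1, 2, 3, 4, 5]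
def gu : Perm (Fin 9) := pm 9 [0, 1, 2, 4, 5, 3, 8, 6, 7] [0, 1, 2, 5, 3, 4, 7, 8, 6]
def gb : Perm (Fin 9) := pm 9 [1, 2, 0, 3, 4, 5, 6, 7, 8] [2, 0, 1, 3, 4, 5, 6, 7, 8]
def gn : Perm (Fin 9) := pm 9 [3, 4, 5, 6, 7, 8, 1, 2, 0] [8, 6, 7, 0, 1, 2, 3, 4, 5]

def uR : List (ℕ × ℕ × ℕ) := [(1, 0, 0), (8, 9, 0)]
def uC : List (ℕ × ℕ × ℕ) := [(1, 0, 0), (2, 9, 0), (6, 9, 9)]
def uS : List (ℕ × ℕ × ℕ) := [(1, 0, 0), (6, 6, 0), (20, 9, 0)]
def uB : List (ℕ × ℕ × ℕ) := [(1, 0, 0), (6, 3, 0), (12, 6, 0), (26, 9, 0), (36, 9, 9)]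

theorem exists_dist : (∃ A, Dist A 2 uR) ∧ (∃ A, Dist A 2 uC) ∧ (∃ A, Dist A 3 uS) ∧
    ∃ A, Dist A 4 uB := by
  have h1 := unif_st unif_one (g := gz) (by decide +kernel)
  have h2 := unif_st h1 (g := gc) (by decide +kernel)
  have h3 := unif_st h1 (g := gn) (by decide +kernel)
  have h4 := unif_st h2 (g := gu) (by decide +kernel)
  have h5 := unif_st h4 (g := gb) (by decide +kernel)
  exact ⟨⟨_, dist_of_unif h2 (by decide +kernel)⟩, ⟨_, dist_of_unif h3 (by decide +kernel)⟩,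
    ⟨_, dist_of_unif h4 (by decide +kernel)⟩, _, dist_of_unif h5 (by decide +kernel)⟩

end Cfsg.Lib.AltE
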